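import Cfsg.Agent.Lib.Helper13.Asch.Defs

set_option autoImplicit false

namespace Cfsg.Agent.Lib.Helper79.Asch

open Cfsg Cfsg.Geo Matrix
open Cfsg.Agent.Lib.Helper13.Asch
open scoped Kronecker MatrixGroups

variable {ι : Type} [Fintype ι] [DecidableEq ι] {F : Type*} [Field F]

namespace L4aux

/-- the natural module of a matrix algebra -/
@[reducible] def natMod (A : Subalgebra F (Matrix ι ι F)) : Module A (ι → F) :=
  Module.compHom (ι → F) ((Matrix.toLinAlgEquiv'.toAlgHom.comp A.val).toRingHom)

theorem semisimpleRing_of_faithful {R M : Type*} [Ring R] [AddCommGroup M] [Module R M]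
    [IsSemisimpleModule R M] {κ : Type*} [Finite κ] (b : κ → M)
    (h : ∀ r : R, (∀ i, r • b i = 0) → r = 0) : IsSemisimpleRing R := by
  let φ : R →ₗ[R] (κ → M) := LinearMap.pi (fun i => LinearMap.toSpanSingleton R M (b i))
  have hφ : Function.Injective φ := by
    rw [injective_iff_map_eq_zero]
    intro a ha
    exact h a (fun i => congrFun ha i)
  exact IsSemisimpleModule.of_injective φ hφ

theorem isSemisimpleRing_of_SS (A : Subalgebra F (Matrix ι ι F)) (hss : SS A) :
    IsSemisimpleRing A := by
  let _ : Module A (ι → F) := natMod A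
  have hsmul : ∀ (a : A) (v : ι → F), a • v = (a : Matrix ι ι F) *ᵥ v := fun a v => rfl
  have hcl : ComplementedLattice (Submodule A (ι → F)) := by
    refine ⟨fun N => ?_⟩
    let W : Submodule F (ι → F) :=
      { carrier := N
        add_mem' := N.add_mem
        zero_mem' := N.zero_mem
        smul_mem' := by
          intro c v hv
          have : c • v = (algebraMap F A c) • v := by
            rw [hsmul]
            show c • v = (algebraMap F (Matrix ι ι F) c) *ᵥ v
            rw [Algebra.algebraMap_eq_smul_one, Matrix.smul_mulVec, Matrix.one_mulVec]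
          rw [this]
          exact N.smul_mem _ hv }
    have hW : Inv (A : Set (Matrix ι ι F)) W := by
      rintro a ha _ ⟨v, hv, rfl⟩
      exact N.smul_mem (⟨a, ha⟩ : A) hv
    obtain ⟨W', hW', hc⟩ := hss W hW
    let N' : Submodule A (ι → F) :=
      { carrier := W'
        add_mem' := W'.add_mem
        zero_mem' := W'.zero_mem
        smul_mem' := by
          intro a v hv
          exact hW' a.1 a.2 ⟨v, hv, rfl⟩ }
    refine ⟨N', ?_, ?_⟩
    · rw [Submodule.disjoint_def]
      intro x hx hx'
      exact (Submodule.disjoint_def.1 hc.disjoint) x hx hx'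
    · rw [Submodule.codisjoint_iff_exists_add_eq]
      intro z
      obtain ⟨y, hy, y', hy', h⟩ := (Submodule.codisjoint_iff_exists_add_eq.1 hc.codisjoint) z
      exact ⟨y, hy, y', hy', h⟩
  have hV : IsSemisimpleModule A (ι → F) := { }
  refine semisimpleRing_of_faithful (M := ι → F) (fun i : ι => (Pi.single i 1 : ι → F)) ?_
  intro a ha
  apply Subtype.ext
  ext r c
  have h1 : ((a : Matrix ι ι F) *ᵥ (Pi.single c 1 : ι → F)) r = 0 := congrFun (ha c) r
  simpa using h1

end L4aux

/-- L4 -/
theorem exists_algEquiv_matrix [Finite F] [Nonempty ι] (A : Subalgebra F (Matrix ι ι F)) (hss : SS A)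
    (hc : ∀ z ∈ A, (∀ a ∈ A, z * a = a * z) → ∃ c : F, z = c • 1) :
    ∃ a : ℕ, Nonempty (Matrix (Fin a) (Fin a) F ≃ₐ[F] A) := by
  classical
  have hA : IsSemisimpleRing A := L4aux.isSemisimpleRing_of_SS A hss
  obtain ⟨n, D, d, iD, iA, iF, hd, ⟨e⟩⟩ :=
    IsSemisimpleRing.exists_algEquiv_pi_matrix_divisionRing_finite F A
  have hcen : ∀ y : (Π i, Matrix (Fin (d i)) (Fin (d i)) (D i)), (∀ f, y * f = f * y) →
      ∃ c : F, y = c • 1 := by
    intro y hy
    obtain ⟨c, hcz⟩ := hc (e.symm y : A) (e.symm y).2 (by
      intro a ha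
      have h2 : e.symm y * ⟨a, ha⟩ = ⟨a, ha⟩ * e.symm y := by
        apply e.injective
        rw [map_mul, map_mul, e.apply_symm_apply]
        exact hy (e ⟨a, ha⟩)
      exact congrArg Subtype.val h2)
    refine ⟨c, ?_⟩
    have h3 : e.symm y = c • (1 : A) := Subtype.ext hcz
    rw [← e.apply_symm_apply y, h3, map_smul, map_one]
  have hnt : ∀ i, Nontrivial (Matrix (Fin (d i)) (Fin (d i)) (D i)) := by
    intro i
    have := hd i
    infer_instance
  have hn : 0 < n := by
    rcases Nat.eq_zero_or_pos n with h0 | h0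
    · subst h0
      exfalso
      have h1 : (1 : A) = 0 := e.injective (Subsingleton.elim _ _)
      have h2 : (1 : Matrix ι ι F) = 0 := congrArg Subtype.val h1
      exact one_ne_zero h2
    · exact h0
  let i0 : Fin n := ⟨0, hn⟩
  have huniq : ∀ j : Fin n, j = i0 := by
    intro j
    by_contra hj
    obtain ⟨c, hcy⟩ := hcen (Pi.single i0 1) (by
      intro f
      funext k
      by_cases hk : k = i0
      · subst hk
        simp
      · simp [Pi.single_eq_of_ne hk])
    have h1 := congrFun hcy j
    have h2 := congrFun hcy i0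
    rw [Pi.single_eq_of_ne hj] at h1
    rw [Pi.single_eq_same] at h2
    have h3 : c • (1 : Matrix (Fin (d j)) (Fin (d j)) (D j)) = 0 := h1.symm
    have := hnt j
    have h4 : c = 0 := by
      rcases smul_eq_zero.1 h3 with h | h
      · exact h
      · exact absurd h one_ne_zero
    have := hnt i0
    have h5 : (1 : Matrix (Fin (d i0)) (Fin (d i0)) (D i0)) = c • 1 := h2
    rw [h4, zero_smul] at h5
    exact one_ne_zero h5
  let ev := Pi.evalAlgHom F (fun i => Matrix (Fin (d i)) (Fin (d i)) (D i)) i0
  have hev : Function.Bijective ev := by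
    constructor
    · intro f g hfg
      funext j
      obtain rfl := huniq j
      exact hfg
    · intro x
      exact ⟨Pi.single i0 x, by simp [ev]⟩
  have hfinD : Finite (D i0) := Module.finite_of_finite F
  have hcomm : ∀ x y : D i0, x * y = y * x := (Finite.isDomain_to_isField (D i0)).mul_comm
  have hsurj : Function.Surjective (Algebra.ofId F (D i0)) := by
    intro x
    obtain ⟨c, hcy⟩ := hcen (Pi.single i0 (Matrix.scalar (Fin (d i0)) x)) (by
      intro f
      funext k
      obtain rfl := huniq k
      simp only [Pi.mul_apply, Pi.single_eq_same]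
      exact Matrix.scalar_commute x (fun r => hcomm x r) (f i0))
    have := hd i0
    have h1 := congrFun (congrFun (congrFun hcy i0) 0) 0
    refine ⟨c, ?_⟩
    simp only [Pi.single_eq_same, Matrix.scalar_apply, Matrix.diagonal_apply_eq, Pi.smul_apply,
      Pi.one_apply, Matrix.smul_apply, Matrix.one_apply_eq] at h1
    rw [h1]
    show algebraMap F (D i0) c = _
    rw [Algebra.algebraMap_eq_smul_one]
  let g : F ≃ₐ[F] D i0 :=
    AlgEquiv.ofBijective (Algebra.ofId F (D i0)) ⟨(algebraMap F (D i0)).injective, hsurj⟩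
  exact ⟨d i0, ⟨(g.mapMatrix).trans ((AlgEquiv.ofBijective ev hev).symm.trans e.symm)⟩⟩

end Cfsg.Agent.Lib.Helper79.Asch
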