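import Cfsg.Agent.Lib.Helper13.Asch.Defs

set_option autoImplicit false

namespace Cfsg.Agent.Lib.Helper79.Asch

open Cfsg Cfsg.Geo Matrix
open Cfsg.Agent.Lib.Helper13.Asch
open scoped Kronecker MatrixGroups

variable {ι : Type} [Fintype ι] [DecidableEq ι] {F : Type*} [Field F]

namespace L5aux

variable {a : ℕ} (ψ : Matrix (Fin a) (Fin a) F →ₐ[F] Matrix ι ι F)

/-- images of the matrix units -/
def El (i j : Fin a) : Matrix ι ι F := ψ (Matrix.single i j 1)

theorem El_mul_same (i j l : Fin a) : El ψ i j * El ψ j l = El ψ i l := by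
  unfold El
  rw [← map_mul, Matrix.single_mul_single_same, mul_one]

theorem El_mul_ne (i j k l : Fin a) (h : j ≠ k) : El ψ i j * El ψ k l = 0 := by
  unfold El
  rw [← map_mul, Matrix.single_mul_single_of_ne _ _ _ _ h, map_zero]

theorem sum_El : ∑ i, El ψ i i = 1 := by
  unfold El
  rw [← map_sum]
  have : ∑ i : Fin a, Matrix.single i i (1 : F) = 1 := by
    ext r c
    rw [Matrix.sum_apply]
    by_cases h : r = c
    · subst h
      rw [Finset.sum_eq_single r]
      · simp
      · intro b _ hb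
        simp [hb]
      · simp
    · rw [Matrix.one_apply_ne h]
      apply Finset.sum_eq_zero
      intro x _
      rw [Matrix.single_apply]
      split_ifs with h1
      · exact absurd (h1.1.symm.trans h1.2) h
      · rfl
  rw [this, map_one]

theorem El_mul_psi (i k : Fin a) (X : Matrix (Fin a) (Fin a) F) :
    El ψ k i * ψ X = ∑ l, X i l • El ψ k l := by
  unfold El
  rw [← map_mul]
  have : Matrix.single k i (1 : F) * X = ∑ l, X i l • Matrix.single k l (1 : F) := by
    ext r c
    rw [Matrix.sum_apply]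
    simp only [Matrix.smul_apply, Matrix.single_apply, smul_eq_mul]
    by_cases h : k = r
    · subst h
      simp [Matrix.mul_apply, Matrix.single_apply]
    · simp [Matrix.mul_apply, h]
  rw [this, map_sum]
  apply Finset.sum_congr rfl
  intro l _
  rw [map_smul]

/-- the space `e₀₀ V` -/
def W (o : Fin a) : Submodule F (ι → F) := LinearMap.range (Matrix.mulVecLin (El ψ o o))

theorem mem_W (o i : Fin a) (v : ι → F) : El ψ o i *ᵥ v ∈ W ψ o := by
  refine ⟨El ψ o i *ᵥ v, ?_⟩
  rw [Matrix.mulVecLin_apply, Matrix.mulVec_mulVec, El_mul_same]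

theorem fix_W (o : Fin a) (w : W ψ o) : El ψ o o *ᵥ (w : ι → F) = w := by
  obtain ⟨u, hu⟩ := w.2
  rw [← hu, Matrix.mulVecLin_apply, Matrix.mulVec_mulVec, El_mul_same]

/-- `V ≃ (e₀₀ V)^a` -/
def T1 (o : Fin a) : (ι → F) ≃ₗ[F] (Fin a → W ψ o) where
  toFun v := fun i => ⟨El ψ o i *ᵥ v, mem_W ψ o i v⟩
  map_add' u v := by
    funext i
    apply Subtype.ext
    simp [Matrix.mulVec_add]
  map_smul' c v := by
    funext i
    apply Subtype.ext
    simp [Matrix.mulVec_smul]
  invFun u := ∑ i, El ψ i o *ᵥ (u i : ι → F)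
  left_inv v := by
    simp only [Matrix.mulVec_mulVec, El_mul_same]
    rw [← Matrix.sum_mulVec, sum_El, Matrix.one_mulVec]
  right_inv u := by
    funext k
    apply Subtype.ext
    simp only
    rw [Matrix.mulVec_sum]
    rw [Finset.sum_eq_single k]
    · rw [Matrix.mulVec_mulVec, El_mul_same, fix_W]
    · intro b _ hb
      rw [Matrix.mulVec_mulVec, El_mul_ne _ _ _ _ _ hb.symm, Matrix.zero_mulVec]
    · simp

theorem T1_apply (o : Fin a) (v : ι → F) (i : Fin a) :
    ((T1 ψ o v i : W ψ o) : ι → F) = El ψ o i *ᵥ v := rfl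

theorem T1_psi (o : Fin a) (X : Matrix (Fin a) (Fin a) F) (v : ι → F) (i : Fin a) :
    T1 ψ o (ψ X *ᵥ v) i = ∑ l, X i l • T1 ψ o v l := by
  apply Subtype.ext
  rw [T1_apply, Matrix.mulVec_mulVec, El_mul_psi, Matrix.sum_mulVec]
  rw [Submodule.coe_sum]
  apply Finset.sum_congr rfl
  intro l _
  rw [Submodule.coe_smul, T1_apply, Matrix.smul_mulVec]

end L5aux

open L5aux in
/-- L5 -/
theorem matrix_rep_std {a : ℕ} (ψ : Matrix (Fin a) (Fin a) F →ₐ[F] Matrix ι ι F) :
    ∃ (b : ℕ) (e : ι ≃ Fin a × Fin b) (P : GL ι F), ∀ X, ψ X = embL e P X := by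
  classical
  rcases Nat.eq_zero_or_pos a with ha | ha
  · subst ha
    have h01 : (1 : Matrix ι ι F) = 0 := by
      rw [← map_one ψ, ← map_zero ψ]
      congr 1
      exact Subsingleton.elim _ _
    have hemp : IsEmpty ι := by
      constructor
      intro i
      have := congrFun (congrFun h01 i) i
      simp at this
    refine ⟨0, Equiv.equivOfIsEmpty _ _, 1, fun X => ?_⟩
    ext i
    exact hemp.elim i
  · obtain ⟨a, rfl⟩ : ∃ a', a = a' + 1 := ⟨a - 1, by omega⟩
    set o : Fin (a + 1) := 0 with ho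
    set b := Module.finrank F (W ψ o) with hb
    let T2 : (Fin (a + 1) → W ψ o) ≃ₗ[F] (Fin (a + 1) → Fin b → F) :=
      LinearEquiv.piCongrRight (fun _ => (Module.finBasis F (W ψ o)).equivFun)
    let T3 : (Fin (a + 1) → Fin b → F) ≃ₗ[F] (Fin (a + 1) × Fin b → F) :=
      (LinearEquiv.curry F F (Fin (a + 1)) (Fin b)).symm
    let T123 : (ι → F) ≃ₗ[F] (Fin (a + 1) × Fin b → F) := (T1 ψ o).trans (T2.trans T3)
    have hcard : Fintype.card ι = Fintype.card (Fin (a + 1) × Fin b) := by
      have := T123.finrank_eq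
      rwa [Module.finrank_fintype_fun_eq_card, Module.finrank_fintype_fun_eq_card] at this
    let e : ι ≃ Fin (a + 1) × Fin b := Fintype.equivOfCardEq hcard
    let T : (ι → F) ≃ₗ[F] (ι → F) := T123.trans (LinearEquiv.funCongrLeft F F e)
    have hT : ∀ (v : ι → F) (k : ι),
        T v k = (Module.finBasis F (W ψ o)).equivFun (T1 ψ o v (e k).1) (e k).2 := by
      intro v k
      rfl
    let Qm : Matrix ι ι F := LinearMap.toMatrix' (T : (ι → F) →ₗ[F] (ι → F))
    let Pm : Matrix ι ι F := LinearMap.toMatrix' (T.symm : (ι → F) →ₗ[F] (ι → F))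
    have hPQ : Pm * Qm = 1 := by
      rw [← LinearMap.toMatrix'_comp]
      rw [LinearEquiv.symm_comp, LinearMap.toMatrix'_id]
    have hQP : Qm * Pm = 1 := by
      rw [← LinearMap.toMatrix'_comp]
      rw [LinearEquiv.comp_symm, LinearMap.toMatrix'_id]
    refine ⟨b, e, ⟨Pm, Qm, hPQ, hQP⟩, fun X => ?_⟩
    have key : Qm * ψ X =
        Matrix.reindex e.symm e.symm (X ⊗ₖ (1 : Matrix (Fin b) (Fin b) F)) * Qm := by
      apply Matrix.toLin'.injective
      apply LinearMap.ext
      intro v
      rw [Matrix.toLin'_apply, Matrix.toLin'_apply, ← Matrix.mulVec_mulVec, ← Matrix.mulVec_mulVec]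
      rw [LinearMap.toMatrix'_mulVec, LinearMap.toMatrix'_mulVec]
      funext k
      show T (ψ X *ᵥ v) k = _
      rw [hT, T1_psi, map_sum, Finset.sum_apply]
      simp only [map_smul, Pi.smul_apply, smul_eq_mul]
      rw [Matrix.mulVec, dotProduct]
      rw [← Equiv.sum_comp e.symm]
      rw [Fintype.sum_prod_type]
      apply Finset.sum_congr rfl
      intro l _
      rw [Finset.sum_eq_single (e k).2]
      · show _ = _ * T v (e.symm (l, (e k).2))
        rw [hT]
        simp [Matrix.kroneckerMap_apply]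
      · intro j _ hj
        simp [Matrix.kroneckerMap_apply, Matrix.one_apply_ne hj.symm]
      · simp
    show ψ X = Pm * _ * Qm
    rw [mul_assoc, ← key, ← mul_assoc, hPQ, one_mul]

end Cfsg.Agent.Lib.Helper79.Asch
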