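import Cfsg.Agent.Lib.Helper13.Asch.Defs3

set_option autoImplicit false

/-! # D5: over the field with two elements, `GL_2 ⊗ GL_k` normalises a quadratic field -/

namespace Cfsg.Agent.Lib.Helper13.Asch

open Cfsg Cfsg.Geo Matrix
open scoped Kronecker MatrixGroups

variable {ι : Type} [Fintype ι] [DecidableEq ι] {F : Type*} [Field F]

namespace D5aux

/-- the algebra `F[ω]`, `ω² = ω + 1`, inside the `2 × 2` matrices -/
def K0 (F : Type*) [Field F] : Subalgebra F (Matrix (Fin 2) (Fin 2) F) where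
  carrier := {X | X 0 1 = X 1 0 ∧ X 1 1 = X 0 0 + X 0 1}
  mul_mem' := by
    rintro X Y ⟨h1, h2⟩ ⟨h3, h4⟩
    refine ⟨?_, ?_⟩
    · simp only [Matrix.mul_apply, Fin.sum_univ_two]
      rw [h2, h4, ← h1, ← h3]; ring
    · simp only [Matrix.mul_apply, Fin.sum_univ_two]
      rw [h2, h4, ← h1, ← h3]; ring
  add_mem' := by
    rintro X Y ⟨h1, h2⟩ ⟨h3, h4⟩
    refine ⟨?_, ?_⟩
    · simp only [Matrix.add_apply]; rw [h1, h3]
    · simp only [Matrix.add_apply]; rw [h2, h4]; ring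
  algebraMap_mem' := by
    intro r
    refine ⟨?_, ?_⟩
    · simp [Matrix.algebraMap_matrix_apply]
    · simp [Matrix.algebraMap_matrix_apply]

theorem mem_K0 {X : Matrix (Fin 2) (Fin 2) F} :
    X ∈ K0 F ↔ X 0 1 = X 1 0 ∧ X 1 1 = X 0 0 + X 0 1 := Iff.rfl

/-- `X ↦ P (X ⊗ 1) P⁻¹` as an algebra homomorphism -/
def embLHom {a b : ℕ} (e : ι ≃ Fin a × Fin b) (P : GL ι F) :
    Matrix (Fin a) (Fin a) F →ₐ[F] Matrix ι ι F where
  toFun X := (P : Matrix ι ι F) *
    Matrix.reindexAlgEquiv F F e.symm (X ⊗ₖ (1 : Matrix (Fin b) (Fin b) F)) *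
    ((P⁻¹ : GL ι F) : Matrix ι ι F)
  map_one' := by
    rw [Matrix.one_kronecker_one, map_one, mul_one, ← Units.val_mul, mul_inv_cancel, Units.val_one]
  map_mul' X Y := by
    have h : (X * Y) ⊗ₖ (1 : Matrix (Fin b) (Fin b) F) = (X ⊗ₖ 1) * (Y ⊗ₖ 1) := by
      rw [← Matrix.mul_kronecker_mul, one_mul]
    rw [h, map_mul]
    have hP : ((P⁻¹ : GL ι F) : Matrix ι ι F) * (P : Matrix ι ι F) = 1 := by
      rw [← Units.val_mul, inv_mul_cancel, Units.val_one]
    calc _ = (P : Matrix ι ι F) * Matrix.reindexAlgEquiv F F e.symm (X ⊗ₖ 1) * 1 *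
          Matrix.reindexAlgEquiv F F e.symm (Y ⊗ₖ 1) * ((P⁻¹ : GL ι F) : Matrix ι ι F) := by
          simp only [mul_one, mul_assoc]
      _ = _ := by rw [← hP]; simp only [mul_assoc]
  map_zero' := by simp
  map_add' X Y := by
    rw [Matrix.add_kronecker, map_add, mul_add, add_mul]
  commutes' r := by
    have h : (algebraMap F (Matrix (Fin a) (Fin a) F) r) ⊗ₖ (1 : Matrix (Fin b) (Fin b) F)
        = algebraMap F _ r := by
      rw [Algebra.algebraMap_eq_smul_one, Algebra.algebraMap_eq_smul_one, Matrix.smul_kronecker,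
        Matrix.one_kronecker_one]
    rw [h, AlgEquiv.commutes, Algebra.algebraMap_eq_smul_one, mul_smul_comm, mul_one, smul_mul_assoc,
      ← Units.val_mul, mul_inv_cancel, Units.val_one]

theorem embLHom_injective {a b : ℕ} (hb : 0 < b) (e : ι ≃ Fin a × Fin b) (P : GL ι F) :
    Function.Injective (embLHom e P) := by
  intro X Y h
  have hP : ((P⁻¹ : GL ι F) : Matrix ι ι F) * (P : Matrix ι ι F) = 1 := by
    rw [← Units.val_mul, inv_mul_cancel, Units.val_one]
  have hP' : (P : Matrix ι ι F) * ((P⁻¹ : GL ι F) : Matrix ι ι F) = 1 := by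
    rw [← Units.val_mul, mul_inv_cancel, Units.val_one]
  have h1 : Matrix.reindexAlgEquiv F F e.symm (X ⊗ₖ (1 : Matrix (Fin b) (Fin b) F))
      = Matrix.reindexAlgEquiv F F e.symm (Y ⊗ₖ (1 : Matrix (Fin b) (Fin b) F)) := by
    have h2 := congrArg (fun Z => ((P⁻¹ : GL ι F) : Matrix ι ι F) * Z * (P : Matrix ι ι F)) h
    simp only [embLHom, AlgHom.coe_mk, RingHom.coe_mk, MonoidHom.coe_mk, OneHom.coe_mk] at h2
    simpa [mul_assoc, hP, hP', ← mul_assoc ((P⁻¹ : GL ι F) : Matrix ι ι F) (P : Matrix ι ι F)]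
      using h2
  have h3 := (Matrix.reindexAlgEquiv F F e.symm).injective h1
  ext i j
  have h4 := congrFun (congrFun h3 (i, ⟨0, hb⟩)) (j, ⟨0, hb⟩)
  simpa [Matrix.kroneckerMap_apply] using h4

theorem zero_or_one [Fintype F] (hq : Fintype.card F = 2) (x : F) : x = 0 ∨ x = 1 := by
  classical
  by_contra h
  rw [not_or] at h
  have h3 : ({0, 1, x} : Finset F).card = 3 := by
    rw [Finset.card_insert_of_notMem, Finset.card_insert_of_notMem, Finset.card_singleton]
    · simpa using Ne.symm h.2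
    · simp only [Finset.mem_insert, Finset.mem_singleton, not_or]
      exact ⟨zero_ne_one, Ne.symm h.1⟩
  have := Finset.card_le_univ ({0, 1, x} : Finset F)
  omega

theorem one_add_one [Fintype F] (hq : Fintype.card F = 2) : (1 : F) + 1 = 0 := by
  rcases zero_or_one hq ((1 : F) + 1) with h | h
  · exact h
  · exfalso
    have : (1 : F) = 0 := by linear_combination h
    exact one_ne_zero this

/-- `GL_2(F_2)` normalises `K0` -/
theorem conj_mem_K0 [Fintype F] (hq : Fintype.card F = 2) (g : GL (Fin 2) F)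
    {X : Matrix (Fin 2) (Fin 2) F} (hX : X ∈ K0 F) :
    (g : Matrix (Fin 2) (Fin 2) F) * X * ((g⁻¹ : GL (Fin 2) F) : Matrix (Fin 2) (Fin 2) F) ∈ K0 F := by
  have h2 := one_add_one hq
  have hdet : (g : Matrix (Fin 2) (Fin 2) F).det = 1 := by
    rcases zero_or_one hq (g : Matrix (Fin 2) (Fin 2) F).det with h | h
    · exfalso
      have := Matrix.GeneralLinearGroup.det_ne_zero g
      exact this h
    · exact h
  have hinv : ((g⁻¹ : GL (Fin 2) F) : Matrix (Fin 2) (Fin 2) F)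
      = (g : Matrix (Fin 2) (Fin 2) F).adjugate := by
    rw [Matrix.coe_units_inv, Matrix.inv_def, hdet]; simp
  rw [hinv, Matrix.adjugate_fin_two]
  rw [Matrix.det_fin_two] at hdet
  obtain ⟨h1, h3⟩ := hX
  generalize (g : Matrix (Fin 2) (Fin 2) F) = G at hdet
  rw [mem_K0]
  simp only [Matrix.mul_apply, Fin.sum_univ_two, Matrix.of_apply, Matrix.cons_val_zero,
    Matrix.cons_val_one, Matrix.cons_val', Matrix.cons_val_fin_one]
  rw [h3, ← h1]
  have hm : (-1 : F) = 1 := by linear_combination -h2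
  rcases zero_or_one hq (G 0 0) with a | a <;> rcases zero_or_one hq (G 0 1) with b | b <;>
  rcases zero_or_one hq (G 1 0) with c | c <;> rcases zero_or_one hq (G 1 1) with d | d <;>
  rw [a, b, c, d] at hdet ⊢ <;> simp at hdet <;>
  rcases zero_or_one hq (X 0 0) with x | x <;> rcases zero_or_one hq (X 0 1) with y | y <;>
  rw [x, y] <;> simp [hm, h2]

theorem K0_comm {X Y : Matrix (Fin 2) (Fin 2) F} (hX : X ∈ K0 F) (hY : Y ∈ K0 F) :
    X * Y = Y * X := by
  obtain ⟨h1, h2⟩ := hX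
  obtain ⟨h3, h4⟩ := hY
  ext i j
  fin_cases i <;> fin_cases j <;>
    simp only [Matrix.mul_apply, Fin.sum_univ_two, Fin.zero_eta, Fin.mk_one, Fin.isValue] <;>
    simp only [h2, h4, ← h1, ← h3] <;> ring

theorem K0_inv [Fintype F] (hq : Fintype.card F = 2) {X : Matrix (Fin 2) (Fin 2) F}
    (hX : X ∈ K0 F) (h0 : X ≠ 0) : ∃ Y ∈ K0 F, X * Y = 1 := by
  have h2 := one_add_one hq
  obtain ⟨h1, h3⟩ := hX
  have hXe : X = !![X 0 0, X 0 1; X 0 1, X 0 0 + X 0 1] := by
    ext i j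
    fin_cases i <;> fin_cases j <;> simp [← h1, h3]
  rcases zero_or_one hq (X 0 0) with x | x <;> rcases zero_or_one hq (X 0 1) with y | y <;>
    rw [x, y] at hXe
  · exfalso; apply h0; rw [hXe]; ext i j; fin_cases i <;> fin_cases j <;> simp
  · refine ⟨!![1, 1; 1, 0], ⟨by simp, by simp [h2]⟩, ?_⟩
    rw [hXe]; ext i j; fin_cases i <;> fin_cases j <;> simp [Matrix.mul_apply, Fin.sum_univ_two, h2]
  · refine ⟨!![1, 0; 0, 1], ⟨by simp, by simp⟩, ?_⟩
    rw [hXe]; ext i j; fin_cases i <;> fin_cases j <;> simp [Matrix.mul_apply, Fin.sum_univ_two]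
  · refine ⟨!![0, 1; 1, 1], ⟨by simp, by simp⟩, ?_⟩
    rw [hXe]; ext i j; fin_cases i <;> fin_cases j <;> simp [Matrix.mul_apply, Fin.sum_univ_two, h2]

/-- coordinates on `K0` -/
def K0equiv (F : Type*) [Field F] : K0 F ≃ₗ[F] (F × F) where
  toFun X := (X.1 0 0, X.1 0 1)
  map_add' X Y := by simp
  map_smul' r X := by simp
  invFun p := ⟨!![p.1, p.2; p.2, p.1 + p.2], by simp [mem_K0]⟩
  left_inv X := by
    obtain ⟨X, h1, h3⟩ := X
    ext i j
    fin_cases i <;> fin_cases j <;> simp [← h1, h3]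
  right_inv p := by simp

theorem finrank_K0 : Module.finrank F (K0 F) = 2 := by
  rw [(K0equiv F).finrank_eq, Module.finrank_prod, Module.finrank_self]

end D5aux

open D5aux in
/-- D5 -/
theorem tensor_two_field [Fintype F] (hq : Fintype.card F = 2) {k : ℕ} (hk : 0 < k)
    (e : ι ≃ Fin 2 × Fin k) (P : GL ι F) :
    ∃ K : Subalgebra F (Matrix ι ι F), IsFieldSubalgebra 2 K ∧
      tensorProductSubgroup 2 k e P ≤ subalgebraNormalizer K := by
  have hinj := embLHom_injective hk e P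
  refine ⟨(K0 F).map (embLHom e P), ⟨?_, ?_, ?_⟩, ?_⟩
  · rintro _ ⟨X, hX, rfl⟩ _ ⟨Y, hY, rfl⟩
    change embLHom e P X * embLHom e P Y = embLHom e P Y * embLHom e P X
    rw [← map_mul, ← map_mul, K0_comm hX hY]
  · rintro _ ⟨X, hX, rfl⟩ h0
    change embLHom e P X ≠ 0 at h0
    have hX0 : X ≠ 0 := by
      rintro rfl
      exact h0 (map_zero _)
    obtain ⟨Y, hY, hXY⟩ := K0_inv hq hX hX0
    refine ⟨embLHom e P Y, ⟨Y, hY, rfl⟩, ?_⟩
    change embLHom e P X * embLHom e P Y = 1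
    rw [← map_mul, hXY, map_one]
  · have h1 : Module.finrank F ((K0 F).map (embLHom e P)) = Module.finrank F (K0 F) := by
      have := (Submodule.equivMapOfInjective (embLHom e P).toLinearMap hinj
        (Subalgebra.toSubmodule (K0 F))).finrank_eq
      rw [← Subalgebra.map_toSubmodule] at this
      exact this.symm
    rw [h1, finrank_K0]
  · have key : ∀ g ∈ tensorProductSubgroup 2 k e P, ∀ κ ∈ (K0 F).map (embLHom e P),
        (g : Matrix ι ι F) * κ * ((g⁻¹ : GL ι F) : Matrix ι ι F) ∈ (K0 F).map (embLHom e P) := by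
      rintro g hg _ ⟨X, hX, rfl⟩
      obtain ⟨g1, hg1, rfl⟩ := hg
      obtain ⟨g0, ⟨a, b, hab⟩, rfl⟩ := hg1
      refine ⟨(a : Matrix (Fin 2) (Fin 2) F) * X * ((a⁻¹ : GL (Fin 2) F) : Matrix (Fin 2) (Fin 2) F),
        conj_mem_K0 hq a hX, ?_⟩
      set g : GL ι F := (MulAut.conj P).toMonoidHom ((glReindex e.symm).toMonoidHom g0) with hg
      have hPi : ((P⁻¹ : GL ι F) : Matrix ι ι F) * (P : Matrix ι ι F) = 1 := by
        rw [← Units.val_mul, inv_mul_cancel, Units.val_one]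
      have hgm : (g : Matrix ι ι F) = (P : Matrix ι ι F) *
          Matrix.reindexAlgEquiv F F e.symm ((a : Matrix (Fin 2) (Fin 2) F) ⊗ₖ
            (b : Matrix (Fin k) (Fin k) F)) * ((P⁻¹ : GL ι F) : Matrix ι ι F) := by
        rw [← hab]; rfl
      have hai : ((a⁻¹ : GL (Fin 2) F) : Matrix (Fin 2) (Fin 2) F) * (a : Matrix (Fin 2) (Fin 2) F)
          = 1 := by
        rw [← Units.val_mul, inv_mul_cancel, Units.val_one]
      have hcomm : (g : Matrix ι ι F) * embLHom e P X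
          = embLHom e P ((a : Matrix (Fin 2) (Fin 2) F) * X *
              ((a⁻¹ : GL (Fin 2) F) : Matrix (Fin 2) (Fin 2) F)) * (g : Matrix ι ι F) := by
        rw [hgm]
        change (P : Matrix ι ι F) * _ * ((P⁻¹ : GL ι F) : Matrix ι ι F) *
            ((P : Matrix ι ι F) * _ * ((P⁻¹ : GL ι F) : Matrix ι ι F))
          = (P : Matrix ι ι F) * _ * ((P⁻¹ : GL ι F) : Matrix ι ι F) *
            ((P : Matrix ι ι F) * _ * ((P⁻¹ : GL ι F) : Matrix ι ι F))
        have hgen : ∀ U V : Matrix ι ι F, (P : Matrix ι ι F) * U * ((P⁻¹ : GL ι F) : Matrix ι ι F) *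
            ((P : Matrix ι ι F) * V * ((P⁻¹ : GL ι F) : Matrix ι ι F))
            = (P : Matrix ι ι F) * (U * V) * ((P⁻¹ : GL ι F) : Matrix ι ι F) := by
          intro U V
          calc _ = (P : Matrix ι ι F) * U * (((P⁻¹ : GL ι F) : Matrix ι ι F) * (P : Matrix ι ι F))
                * V * ((P⁻¹ : GL ι F) : Matrix ι ι F) := by simp only [mul_assoc]
            _ = _ := by rw [hPi, mul_one]; simp only [mul_assoc]
        rw [hgen, hgen, ← map_mul, ← map_mul, ← Matrix.mul_kronecker_mul, ← Matrix.mul_kronecker_mul,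
          mul_one, one_mul, mul_assoc _ _ (a : Matrix (Fin 2) (Fin 2) F), hai, mul_one]
      change embLHom e P _ = (g : Matrix ι ι F) * embLHom e P X * ((g⁻¹ : GL ι F) : Matrix ι ι F)
      rw [hcomm, mul_assoc (embLHom e P _), ← Units.val_mul, mul_inv_cancel, Units.val_one, mul_one]
    intro g hg κ
    refine ⟨key g hg κ, fun h => ?_⟩
    have h2 := key g⁻¹ (inv_mem hg) _ h
    rw [inv_inv] at h2
    have hP : ((g⁻¹ : GL ι F) : Matrix ι ι F) * (g : Matrix ι ι F) = 1 := by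
      rw [← Units.val_mul, inv_mul_cancel, Units.val_one]
    have h3 : ((g⁻¹ : GL ι F) : Matrix ι ι F) *
        ((g : Matrix ι ι F) * κ * ((g⁻¹ : GL ι F) : Matrix ι ι F)) * (g : Matrix ι ι F) = κ := by
      calc _ = (((g⁻¹ : GL ι F) : Matrix ι ι F) * (g : Matrix ι ι F)) * κ *
            (((g⁻¹ : GL ι F) : Matrix ι ι F) * (g : Matrix ι ι F)) := by simp only [mul_assoc]
        _ = κ := by rw [hP, one_mul, mul_one]
    rwa [h3] at h2

end Cfsg.Agent.Lib.Helper13.Asch
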